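import Cfsg.Agent.SzL.A
import Cfsg.Agent.H19.SzBasic
import Cfsg.Agent.H18.MatAlg

/-! The graph endomorphism `star4` of `Sp₄` in characteristic two. -/

set_option autoImplicit false

namespace Cfsg.Agent.SzL

open Matrix Module Cfsg.Lie

variable {F : Type*} [Field F]

/-- Plücker coordinates on `U / W` -/
def wd (u v : V4 F) : V4 F := fun p =>
  u (pairOf p).1 * v (pairOf p).2 - u (pairOf p).2 * v (pairOf p).1

def mu (u v : V4 F) : F := u 0 * v 3 - u 3 * v 0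

def Q0 (v : V4 F) : F := v 0 * v 3 + v 1 * v 2

theorem wd0 (u v : V4 F) : wd u v 0 = u 0 * v 1 - u 1 * v 0 := rfl
theorem wd1 (u v : V4 F) : wd u v 1 = u 0 * v 2 - u 2 * v 0 := rfl
theorem wd2 (u v : V4 F) : wd u v 2 = u 1 * v 3 - u 3 * v 1 := rfl
theorem wd3 (u v : V4 F) : wd u v 3 = u 2 * v 3 - u 3 * v 2 := rfl

theorem wd_single (p : Fin 4) :
    wd (Pi.single (pairOf p).1 (1 : F)) (Pi.single (pairOf p).2 1) = Pi.single p 1 := by
  ext r; fin_cases p <;> fin_cases r <;> simp [wd, pairOf]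

theorem B_single (p : Fin 4) : Bf (Pi.single (pairOf p).1 (1 : F)) (Pi.single (pairOf p).2 1) = 0 := by
  fin_cases p <;> simp [Bf_apply, pairOf]

theorem IsQ.ext {Q Q' : V4 F → F} (h : IsQ Q) (h' : IsQ Q')
    (e : ∀ p, Q (Pi.single p 1) = Q' (Pi.single p 1)) (v : V4 F) : Q v = Q' v := by
  have : v = v 0 • Pi.single 0 1 + v 1 • Pi.single 1 1 + v 2 • Pi.single 2 1 + v 3 • Pi.single 3 1 := by
    ext i; fin_cases i <;> simp
  rw [this]
  simp only [h.1, h.2, h'.1, h'.2, e]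

theorem IsQ.nd {Q : V4 F → F} (q : IsQ Q) : Geo.IsNondegenerateQuadraticForm Q := by
  have hp : QuadraticMap.polar Q = fun u v => Bf u v := by
    ext u v; rw [QuadraticMap.polar, q.2]; ring
  refine ⟨q.1, ?_, ?_⟩
  · rw [hp]; constructor <;> simp
  · rw [hp]
    intro v hv
    obtain ⟨z, hz⟩ := exists_one hv
    exact ⟨⟨z, by simp [hz]⟩, z, by simp [sym v, hz]⟩

theorem spB {g : GL (Fin 4) F} (hg : g ∈ Sp4 F) (u v : V4 F) : Bf (g.1 *ᵥ u) (g.1 *ᵥ v) = Bf u v := hg u v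

variable [CharP F 2]

theorem B_wd (u v x y : V4 F) : Bf (wd u v) (wd x y) = Bf u x * Bf v y + Bf u y * Bf v x +
    Bf u v * (Bf x y + mu x y) + mu u v * Bf x y := by
  simp only [Bf_apply, wd0, wd1, wd2, wd3, mu]
  ring_nf; reduce_mod_char!

theorem Q0_wd {u v : V4 F} (h : Bf u v = 0) : Q0 (wd u v) = mu u v ^ 2 := by
  simp only [Bf_apply, wd0, wd1, wd2, wd3, mu, Q0] at h ⊢
  linear_combination (norm := (ring_nf; reduce_mod_char!)) (u 0 * v 3 - u 3 * v 0) * h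

theorem star_wd {g : GL (Fin 4) F} (hg : g ∈ Sp4 F) {u v : V4 F} (h : Bf u v = 0) :
    star4 g.1 *ᵥ wd u v = wd (g.1 *ᵥ u) (g.1 *ᵥ v) := by
  ext p
  have e1 := H19.sp4_row hg (pairOf p).1 (pairOf p).2
  rw [H19.J4_pair] at e1
  have p0 : pairOf 0 = (0, 1) := rfl
  have p1 : pairOf 1 = (0, 2) := rfl
  have p2 : pairOf 2 = (1, 3) := rfl
  have p3 : pairOf 3 = (2, 3) := rfl
  rw [Bf_apply] at h
  simp only [star4, wd, mulVec, dotProduct, of_apply, Fin.sum_univ_four, p0, p1, p2, p3]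
  generalize (pairOf p).1 = k at *
  generalize (pairOf p).2 = l at *
  linear_combination (norm := (ring_nf; reduce_mod_char!)) (u 0 * v 3 - u 3 * v 0) * e1
    + (g k 1 * g l 2 - g l 1 * g k 2) * h

theorem star_B {g : GL (Fin 4) F} (hg : g ∈ Sp4 F) (u v : V4 F) :
    Bf (star4 g.1 *ᵥ u) (star4 g.1 *ᵥ v) = Bf u v := by
  have : Bf.compl₁₂ (toLin' (star4 g.1)) (toLin' (star4 g.1)) = (Bf : V4 F →ₗ[F] V4 F →ₗ[F] F) :=
    LinearMap.ext_basis (Pi.basisFun F _) (Pi.basisFun F _) fun p r => by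
      simp only [Pi.basisFun_apply, LinearMap.compl₁₂_apply, toLin'_apply]
      rw [← wd_single p, ← wd_single r, star_wd hg (B_single p), star_wd hg (B_single r), B_wd, B_wd]
      simp only [spB hg, B_single, zero_mul, mul_zero]
  exact congrArg (fun f : V4 F →ₗ[F] V4 F →ₗ[F] F => f u v) this

theorem star_one : star4 (1 : M4 F) = 1 := by
  rw [H19.star4_eq]; ext i j; fin_cases i <;> fin_cases j <;> simp

/-- the graph endomorphism -/
def st : Sp4 F →* Sp4 F := MonoidHom.mk' (fun g => ⟨⟨star4 g.1.1, star4 g⁻¹.1.1,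
    by rw [← H19.star4_mul g.2 g⁻¹.2, ← Subgroup.coe_mul, mul_inv_cancel]; exact star_one,
    by rw [← H19.star4_mul g⁻¹.2 g.2, ← Subgroup.coe_mul, inv_mul_cancel]; exact star_one⟩,
    star_B g.2⟩) fun g h => Subtype.ext (Units.ext (H19.star4_mul g.2 h.2))

theorem minors {u v : V4 F} (h : Bf u v = 0) (h0 : Q0 (wd u v) = 0) :
    u 0 * v 3 - u 3 * v 0 = 0 ∧ u 1 * v 2 - u 2 * v 1 = 0 := by
  rw [Q0_wd h, pow_eq_zero_iff two_ne_zero, mu] at h0
  rw [Bf_apply] at h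
  exact ⟨h0, by linear_combination (norm := (ring_nf; reduce_mod_char!)) h + h0⟩

theorem st_inj : Function.Injective (st (F := F)) := by
  rw [injective_iff_map_eq_one]
  rintro ⟨g, hg⟩ h
  have h1 : star4 g.1 = 1 := congrArg (fun x : Sp4 F => x.1.1) h
  have h2 := fun p => minors ((spB hg _ _).trans (B_single p)) (by
    rw [← star_wd hg (B_single p), h1, one_mulVec, wd_single]; fin_cases p <;> simp [Q0])
  obtain ⟨a0, b0⟩ := h2 0
  obtain ⟨a1, b1⟩ := h2 1
  obtain ⟨a2, b2⟩ := h2 2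
  obtain ⟨a3, b3⟩ := h2 3
  have s := H19.sp4_col hg 0 3
  have e := fun i j => congrFun (congrFun h1 i) j
  have e00 := e 0 0; have e10 := e 1 0; have e20 := e 2 0; have e30 := e 3 0
  have e01 := e 0 1; have e11 := e 1 1; have e21 := e 2 1; have e31 := e 3 1
  have e02 := e 0 2; have e12 := e 1 2; have e22 := e 2 2; have e32 := e 3 2
  have e03 := e 0 3; have e13 := e 1 3; have e23 := e 2 3; have e33 := e 3 3
  simp [star4, pairOf, H19.J4] at e00 e10 e20 e30 e01 e11 e21 e31 e02 e12 e22 e32 e03 e13 e23 e33 s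
  simp [pairOf] at a0 b0 a1 b1 a2 b2 a3 b3
  set A := g.1
  have z20 : A 2 0 = 0 := by linear_combination -A 2 0 * e00 + A 1 0 * e10 - A 0 0 * b0
  have z30 : A 3 0 = 0 := by linear_combination -A 3 0 * e00 + A 1 0 * a0 - A 0 0 * e20
  have z21 : A 2 1 = 0 := by linear_combination -A 2 1 * e00 + A 1 1 * e10 - A 0 1 * b0
  have z31 : A 3 1 = 0 := by linear_combination -A 3 1 * e00 + A 1 1 * a0 - A 0 1 * e20
  have z10 : A 1 0 = 0 := by linear_combination -A 1 0 * e11 + A 2 0 * e01 + A 0 0 * b1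
  have z12 : A 1 2 = 0 := by linear_combination -A 1 2 * e11 + A 2 2 * e01 + A 0 2 * b1
  have z32 : A 3 2 = 0 := by linear_combination -A 3 2 * e11 + A 2 2 * a1 - A 0 2 * e31
  have z01 : A 0 1 = 0 := by linear_combination -A 0 1 * e22 + A 1 1 * a2 - A 3 1 * e02
  have z03 : A 0 3 = 0 := by linear_combination -A 0 3 * e22 + A 1 3 * a2 - A 3 3 * e02
  have z23 : A 2 3 = 0 := by linear_combination -A 2 3 * e22 + A 3 3 * b2 + A 1 3 * e32
  have z02 : A 0 2 = 0 := by linear_combination -A 0 2 * e33 + A 2 2 * a3 - A 3 2 * e13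
  have z13 : A 1 3 = 0 := by linear_combination -A 1 3 * e33 + A 2 3 * e23 - A 3 3 * b3
  simp only [z20, z30, z21, z31, z10, z12, z32, z01, z03, z23, z02, z13, mul_zero, zero_mul, sub_zero,
    add_zero] at e00 e11 e22 e33 s
  have d1 : A 1 1 = A 3 3 := by linear_combination -A 1 1 * s + A 3 3 * e00
  have d3 : A 3 3 = 1 := sq_inj (by rw [d1] at e22; linear_combination e22)
  rw [d3] at d1 e33 s
  refine Subtype.ext (Units.ext ?_)
  change A = 1
  ext i j
  fin_cases i <;> fin_cases j <;> simp_all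

end Cfsg.Agent.SzL

namespace Cfsg.Agent.H18.S4
open Matrix Module SzL Cfsg.Lie

variable {F : Type*} [Field F] [CharP F 2] {P R : Subgroup (GL (Fin 4) F)}

theorem s1 {g : GL (Fin 4) F} (hg : g ∈ Sp4 F) : ∃ h ∈ Sp4 F, h.1 = star4 g.1 :=
  ⟨_, (st ⟨g, hg⟩).2, rfl⟩

theorem s2 [Finite F] (hP : P ≤ Sp4 F) : ∃ R : Subgroup (GL (Fin 4) F), R ≤ Sp4 F ∧
    ∃ e : R ≃* P, ∀ r : R, (e r).1.1 = star4 r.1.1 := by
  let E : Sp4 F ≃* Sp4 F := MulEquiv.ofBijective st (Finite.injective_iff_bijective.mp st_inj)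
  let R0 := (P.subgroupOf (Sp4 F)).map E.symm.toMonoidHom
  let e := (Subgroup.equivMapOfInjective R0 _ (Sp4 F).subtype_injective).symm.trans
    ((E.symm.subgroupMap (P.subgroupOf (Sp4 F))).symm.trans (Subgroup.subgroupOfEquivOfLe hP))
  refine ⟨R0.map (Sp4 F).subtype, Subgroup.map_subtype_le _, e, fun r => ?_⟩
  obtain ⟨r, rfl⟩ := (Subgroup.equivMapOfInjective R0 _ (Sp4 F).subtype_injective).surjective r
  have : e (Subgroup.equivMapOfInjective R0 _ (Sp4 F).subtype_injective r) =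
      Subgroup.subgroupOfEquivOfLe hP ((E.symm.subgroupMap (P.subgroupOf (Sp4 F))).symm r) :=
    congrArg (fun x => Subgroup.subgroupOfEquivOfLe hP ((E.symm.subgroupMap (P.subgroupOf (Sp4 F))).symm x))
      (MulEquiv.symm_apply_apply _ r)
  rw [this]
  rfl

theorem s3 (hR : R ≤ Sp4 F) (hPR : ∀ r ∈ R, ∃ g ∈ P, g.1 = star4 r.1) (hi : H18.Irr P)
    (hq : ¬ ∃ Q, Geo.IsNondegenerateQuadraticForm Q ∧ Geo.FixesQuadForm (Geo.matrixSet P) Q)
    (hRP : ∀ g ∈ P, ∃ r ∈ R, g.1 = star4 r.1) : H18.Irr R := by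
  intro W hW
  by_contra! H
  have pp : ∀ {S : V4 F → Prop}, (∀ r ∈ R, ∀ v, S v → S (r.1 *ᵥ v)) → ∀ r ∈ R, ∀ v,
      (∀ t, S t → Bf t v = 0) → ∀ t, S t → Bf t (r.1 *ᵥ v) = 0 := fun hS r hr v hv t ht => by
    rw [← hv _ (hS _ (inv_mem hr) t ht), ← spB (hR hr) (r⁻¹.1 *ᵥ t), mulVec_mulVec, Units.mul_inv,
      one_mulVec]
  by_cases hT : ∃ u, u ≠ 0 ∧ u ∈ W ∧ ∀ t ∈ W, Bf t u = 0
  · obtain ⟨u, u0, hu⟩ := hT
    set T : V4 F → Prop := fun u => u ∈ W ∧ ∀ t ∈ W, Bf t u = 0 with hTd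
    have hT : ∀ r ∈ R, ∀ v, T v → T (r.1 *ᵥ v) := fun r hr v hv => ⟨hW r hr v hv.1, pp hW r hr v hv.2⟩
    set S : Set (V4 F) := {s | ∃ u v, T u ∧ (∀ t, T t → Bf t v = 0) ∧ s = wd u v}
    rcases hi (Submodule.span F S) (fun g hg s hs => by
      refine (Submodule.span_le (p := (Submodule.span F S).comap (toLin' g.1))).mpr ?_ hs
      rintro _ ⟨u, v, h1, h2, rfl⟩
      obtain ⟨r, hr, e⟩ := hRP g hg
      exact Submodule.subset_span ⟨_, _, hT r hr u h1, pp hT r hr v h2, by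
        rw [toLin'_apply, e, star_wd (hR hr) (h2 u h1)]⟩) with h | h
    · have h1 : ∀ v, (∀ t, T t → Bf t v = 0) → wd u v = 0 := fun v hv =>
        (Submodule.span_eq_bot.mp h) _ ⟨u, v, hu, hv, rfl⟩
      obtain ⟨z, hz⟩ := exists_one u0
      have h2 : ∀ v, Bf u v = 0 → wd u v = 0 := fun v hv => h1 v fun t ht => by
        have h3 := h1 t fun s hs => ht.2 s hs.1
        obtain ⟨m1, m2⟩ := minors (ht.2 u hu.1) (by simp [h3, Q0])
        have m := fun i => congrFun h3 i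
        have n0 := m 0; have n1 := m 1; have n2 := m 2; have n3 := m 3
        simp only [wd0, wd1, wd2, wd3, Pi.zero_apply] at n0 n1 n2 n3
        have : t = Bf z t • u := by
          rw [Bf_apply] at hz
          ext i
          fin_cases i <;> simp [Bf_apply]
          · linear_combination -t 0 * hz - z 0 * m1 - z 1 * n1 - z 2 * n0
          · linear_combination -t 1 * hz - z 0 * n2 - z 1 * m2 + z 3 * n0
          · linear_combination -t 2 * hz - z 0 * n3 + z 2 * m2 + z 3 * n1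
          · linear_combination -t 3 * hz + z 1 * n3 + z 2 * n2 + z 3 * m1
        rw [this]; simp [hv]
      have k1 := h2 ![0, 0, u 0, u 1] (by simp [Bf_apply, mul_comm, CharTwo.add_self_eq_zero])
      have k2 := h2 ![u 2, u 3, 0, 0] (by simp [Bf_apply, mul_comm, CharTwo.add_self_eq_zero])
      have l0 := congrFun k1 1; have l1 := congrFun k1 2; have l2 := congrFun k2 1; have l3 := congrFun k2 2
      simp [wd1, wd2] at l0 l1 l2 l3
      exact u0 (by ext i; fin_cases i <;> assumption)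
    · have : (Bf : V4 F →ₗ[F] V4 F →ₗ[F] F) = 0 := LinearMap.ext_on h fun s hs => LinearMap.ext_on h fun s' hs' => by
        obtain ⟨u, v, h1, h2, rfl⟩ := hs
        obtain ⟨x, y, h3, h4, rfl⟩ := hs'
        simp [B_wd, h3.2 u h1.1, h4 u h1, h2 u h1, h4 x h3]
      obtain ⟨z, hz⟩ := exists_one u0
      simp [this] at hz
  push Not at hT
  have hT' : ∀ u ∈ W, u ≠ 0 → ∃ t ∈ W, Bf t u = 1 := fun u hu h0 => by
    obtain ⟨t, ht, h⟩ := hT u h0 hu
    exact ⟨(Bf t u)⁻¹ • t, W.smul_mem _ ht, by simp [h]⟩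
  obtain ⟨x, hx, x0⟩ := W.ne_bot_iff.mp H.1
  obtain ⟨y, hy, hyx⟩ := hT' x hx x0
  have hxy : Bf x y = 1 := by rw [sym, hyx]
  have pr : ∀ s : V4 F, Bf x (s - (Bf y s • x + Bf x s • y)) = 0 ∧ Bf y (s - (Bf y s • x + Bf x s • y)) = 0 :=
    fun s => by simp [slf, hxy, hyx]
  have mW : ∀ s, Bf y s • x + Bf x s • y ∈ W := fun s => add_mem (W.smul_mem _ hx) (W.smul_mem _ hy)
  have hZ : ∀ s ∈ W, Bf y s • x + Bf x s • y = s := fun s hs => by
    by_contra h0
    obtain ⟨h1, h2⟩ := pr s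
    have hs' := sub_mem hs (mW s)
    have h0' := sub_ne_zero.mpr (Ne.symm h0)
    generalize s - (Bf y s • x + Bf x s • y) = s at h1 h2 hs' h0'
    obtain ⟨t, ht, h3⟩ := hT' s hs' h0'
    obtain ⟨h4, h5⟩ := pr t
    have h6 : Bf (t - (Bf y t • x + Bf x t • y)) s = 1 := by simp [h1, h2, h3]
    have ht' := sub_mem ht (mW t)
    generalize t - (Bf y t • x + Bf x t • y) = t at h4 h5 h6 ht'
    have li : LinearIndependent F ![x, y, s, t] := Fintype.linearIndependent_iff.mpr fun c hc i => by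
      have c0 := congrArg (Bf y) hc
      have c1 := congrArg (Bf x) hc
      have c2 := congrArg (Bf t) hc
      have c3 := congrArg (Bf s) hc
      simp [Fin.sum_univ_four, slf, hxy, hyx, h1, h2, h4, h5, h6, sym t x, sym t y, sym s x, sym s y,
        sym s t] at c0 c1 c2 c3
      fin_cases i <;> assumption
    refine H.2 (eq_top_iff.mpr ((li.span_eq_top_of_card_eq_finrank (by simp)).ge.trans
      (Submodule.span_le.mpr ?_)))
    rintro _ ⟨i, rfl⟩
    fin_cases i <;> assumption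
  have zi : ∀ r ∈ R, ∀ v, Bf y (r.1 *ᵥ v) • x + Bf x (r.1 *ᵥ v) • y = r.1 *ᵥ (Bf y v • x + Bf x v • y) :=
    fun r hr v => by
    have h1 := pp hW r hr (v - (Bf y v • x + Bf x v • y)) fun t ht => by
      rw [← hZ t ht]; simp only [map_add, map_smul, LinearMap.add_apply, LinearMap.smul_apply, pr]; simp
    have h2 := h1 x hx
    have h3 := h1 y hy
    rw [mulVec_sub, map_sub, sub_eq_zero] at h2 h3
    rw [h2, h3, hZ _ (hW r hr _ (mW v))]
  have q : IsQ fun s => Q0 s + Bf s (wd x y) ^ 2 := ⟨fun c v => by simp [Q0]; ring, fun u v => by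
    simp only [map_add, LinearMap.add_apply, Q0, Pi.add_apply, Bf_apply u v]
    linear_combination (Bf u (wd x y) * Bf v (wd x y)) * (two0 (F := F))⟩
  have qw : ∀ u v, Bf u v = 0 → Q0 (wd u v) + Bf (wd u v) (wd x y) ^ 2 =
      Bf u (Bf y v • x + Bf x v • y) ^ 2 := fun u v h => by
    rw [Q0_wd h, B_wd, h, hxy, sym v, sym v]
    simp only [map_add, map_smul, smul_eq_mul]
    linear_combination (mu u v ^ 2 + mu u v * (Bf u x * Bf y v + Bf u y * Bf x v)) * (two0 (F := F))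
  refine hq ⟨_, q.nd, ?_⟩
  rintro _ ⟨g, hg, rfl⟩
  obtain ⟨r, hr, e⟩ := hRP g hg
  refine IsQ.ext (Q := fun v => Q0 (g.1 *ᵥ v) + Bf (g.1 *ᵥ v) (wd x y) ^ 2) ⟨fun c v => ?_, fun u v => ?_⟩ q
    fun p => ?_
  · beta_reduce; rw [mulVec_smul]; exact q.1 _ _
  · beta_reduce; rw [mulVec_add, ← star_B (hR hr) u v, ← e]; exact q.2 _ _
  · rw [← wd_single, e, star_wd (hR hr) (B_single p), qw _ _ (B_single p),
      qw _ _ ((spB (hR hr) _ _).trans (B_single p)), zi r hr, spB (hR hr)]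

end Cfsg.Agent.H18.S4
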